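/-
Homocyclic subgroups of general and special linear groups from finite field extensions, and Sylow subgroups
for primes larger than the rank.
-/
import Cfsg.Agent.Lib.SylowLarge.Val
import Cfsg.Agent.Lib.SLn.Basic
import Cfsg.Agent.Lib.Classical.SLBasic
import Mathlib

set_option autoImplicit false

namespace Cfsg.Agent.Lib.SylowLarge.Torus

open scoped MatrixGroups
open Cfsg.Agent.Lib.SylowLarge.Val

lemma zmod_equiv_of_card {S : Type*} [Group S] [Finite S] (h : IsCyclic S) {m : ℕ} (hS : Nat.card S = m) :
    Nonempty (Multiplicative (ZMod m) ≃* S) := by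
  subst hS
  exact ⟨zmodCyclicMulEquiv h⟩

/-- Cyclic subgroups of a given order in a cyclic group, parametrized by `ZMod`. -/
lemma exists_inj_zmod {G : Type*} [Group G] [Finite G] [IsCyclic G] {m : ℕ} (hm : m ∣ Nat.card G) :
    ∃ g : Multiplicative (ZMod m) →* G, Function.Injective g := by
  obtain ⟨x, hx⟩ := IsCyclic.exists_ofOrder_eq_natCard (α := G)
  have hpos : orderOf x ≠ 0 := by
    rw [hx]
    exact Nat.card_pos.ne'
  have h1 : orderOf (x ^ (orderOf x / m)) = m := orderOf_pow_orderOf_div hpos (by rwa [hx])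
  let S := Subgroup.zpowers (x ^ (orderOf x / m))
  have hS : Nat.card S = m := by
    rw [Nat.card_zpowers, h1]
  obtain ⟨e⟩ := zmod_equiv_of_card (S := S) inferInstance hS
  exact ⟨S.subtype.comp e.toMonoidHom, (Subgroup.subtype_injective _).comp e.injective⟩

/-- From an injective hom whose source has the right order, all Sylow subgroups are isomorphic to the source. -/
theorem sylow_equiv_of_hom {G A : Type*} [Group G] [Finite G] [Group A] (r : ℕ) [Fact r.Prime] (f : A →* G)
    (hf : Function.Injective f) (hcard : Nat.card A = r ^ (Nat.card G).factorization r) (P : Sylow r G) :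
    Nonempty (P ≃* A) := by
  have e := MonoidHom.ofInjective hf
  have hc : Nat.card f.range = r ^ (Nat.card G).factorization r := by
    rw [← Nat.card_congr e.toEquiv, hcard]
  let Q : Sylow r G := Sylow.ofCard f.range hc
  exact ⟨(Sylow.equiv P Q).trans e.symm⟩

variable {F : Type*} [Field F] [Fintype F]

/-- Torus in `GL_n` from `k` copies of the extension of degree `d`. -/
theorem exists_torus_GL {n d k m : ℕ} (hd : d ≠ 0) (hk : k * d ≤ n) (hm : m ∣ Fintype.card F ^ d - 1) :
    ∃ f : (Fin k → Multiplicative (ZMod m)) →* GL (Fin n) F, Function.Injective f := by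
  classical
  obtain ⟨p, hp⟩ := CharP.exists F
  obtain ⟨f₀, hpp, hf₀⟩ := FiniteField.card F p
  have : Fact p.Prime := ⟨hpp⟩
  have : NeZero d := ⟨hd⟩
  let K := FiniteField.Extension F p d
  have hcardK : Nat.card Kˣ = Fintype.card F ^ d - 1 := by
    rw [Nat.card_units, FiniteField.natCard_extension, Nat.card_eq_fintype_card]
  obtain ⟨g, hg⟩ := exists_inj_zmod (G := Kˣ) (m := m) (by rw [hcardK]; exact hm)
  let R := (Fin k → K) × (Fin (n - k * d) → F)
  have hfr : Module.finrank F R = n := by
    have h1 : Module.finrank F K = d := FiniteField.finrank_extension F p d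
    simp only [R]
    rw [Module.finrank_prod, Module.finrank_pi_fintype]
    simp only [h1, Module.finrank_fin_fun, Finset.sum_const, Finset.card_univ, Fintype.card_fin, smul_eq_mul]
    omega
  obtain ⟨ι, hι, _⟩ := Cfsg.Agent.Lib.SLn.Basic.exists_embed hfr
  let φ₁ : (Fin k → Multiplicative (ZMod m)) →* (Fin k → Kˣ) := MonoidHom.compLeft g (Fin k)
  let φ₂ : (Fin k → Kˣ) →* (Fin k → K)ˣ := MulEquiv.piUnits.symm.toMonoidHom
  let φ₃ : (Fin k → K)ˣ →* Rˣ :=
    (MulEquiv.prodUnits.symm.toMonoidHom).comp (MonoidHom.inl _ _)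
  let φ₄ : Rˣ →* GL (Fin n) F := Units.map ι.toRingHom.toMonoidHom
  refine ⟨φ₄.comp (φ₃.comp (φ₂.comp φ₁)), ?_⟩
  have h1 : Function.Injective φ₁ := by
    intro a c hac
    funext i
    exact hg (congrFun hac i)
  have h2 : Function.Injective φ₂ := MulEquiv.piUnits.symm.injective
  have h3 : Function.Injective φ₃ := by
    intro a c hac
    have h5 := MulEquiv.prodUnits.symm.injective hac
    exact (congrArg Prod.fst h5)
  have h4 : Function.Injective φ₄ := by
    intro a c hac
    apply Units.ext
    apply hι
    exact congrArg Units.val hac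
  exact h4.comp (h3.comp (h2.comp h1))

/-- The valuation of the order of `GL_n(q)` for a field. -/
lemma factorization_card_GL {q r : ℕ} [Fact r.Prime] (hq : Fintype.card F = q) {n : ℕ} (hn : n < r) (hrq : ¬ r ∣ q) :
    (Nat.card (GL (Fin n) F)).factorization r =
      (n / orderOf (q : ZMod r)) * padicValNat r ((Polynomial.cyclotomic (orderOf (q : ZMod r)) ℤ).eval (q : ℤ)).natAbs := by
  subst hq
  rw [Matrix.card_GL_field]
  exact factorization_gl Fintype.one_lt_card hrq hn

/-- Sylow subgroups of the general linear group. -/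
theorem sylow_GL {q r : ℕ} [Fact r.Prime] (hq : Fintype.card F = q) (n : ℕ) (hn : n < r) (hrq : ¬ r ∣ q)
    (P : Sylow r (GL (Fin n) F)) :
    Nonempty (↥(P : Subgroup (GL (Fin n) F)) ≃*
      (Fin (n / orderOf (q : ZMod r)) →
        Multiplicative (ZMod (r ^ padicValNat r ((Polynomial.cyclotomic (orderOf (q : ZMod r)) ℤ).eval (q : ℤ)).natAbs)))) := by
  have hq2 : 2 ≤ q := hq ▸ Fintype.one_lt_card
  set v := padicValNat r ((Polynomial.cyclotomic (orderOf (q : ZMod r)) ℤ).eval (q : ℤ)).natAbs with hv
  set d := orderOf (q : ZMod r) with hd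
  have hd0 : d ≠ 0 := (order_pos hrq).ne'
  have hvd : v = padicValNat r (q ^ d - 1) := (val_cyclotomic hq2 hrq).symm
  have hm : r ^ v ∣ Fintype.card F ^ d - 1 := by
    rw [hq, hvd]
    exact pow_padicValNat_dvd
  obtain ⟨f, hf⟩ := exists_torus_GL (F := F) (k := n / d) (n := n) (m := r ^ v) hd0 (Nat.div_mul_le_self _ _) hm
  have : NeZero (r ^ v) := ⟨(pow_pos (Fact.out : r.Prime).pos _).ne'⟩
  apply sylow_equiv_of_hom r f hf _ P
  rw [factorization_card_GL hq hn hrq, Nat.card_pi]
  simp only [Nat.card_eq_fintype_card, Fintype.card_multiplicative, ZMod.card, Finset.prod_const, Finset.card_univ, Fintype.card_fin]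
  rw [← pow_mul, mul_comm]

/-- Scalars on all coordinates but the last, corrected by the last one. -/
theorem exists_diag_SL {a m : ℕ} (hm : m ∣ Fintype.card F - 1) :
    ∃ f : (Fin a → Multiplicative (ZMod m)) →* Matrix.SpecialLinearGroup (Fin (a + 1)) F, Function.Injective f := by
  classical
  have hcard : Nat.card Fˣ = Fintype.card F - 1 := by
    rw [Nat.card_units, Nat.card_eq_fintype_card]
  obtain ⟨g, hg⟩ := exists_inj_zmod (G := Fˣ) (m := m) (by rw [hcard]; exact hm)
  let D : (Fin a → Multiplicative (ZMod m)) → Fin (a + 1) → Fˣ :=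
    fun x => Fin.snoc (α := fun _ => Fˣ) (fun i => g (x i)) (∏ i, g (x i))⁻¹
  have hDc : ∀ x i, D x (Fin.castSucc i) = g (x i) := fun x i => Fin.snoc_castSucc (α := fun _ => Fˣ) _ _ _
  have hDl : ∀ x, D x (Fin.last a) = (∏ i, g (x i))⁻¹ := fun x => Fin.snoc_last (α := fun _ => Fˣ) _ _
  have hDmul : ∀ x y i, D (x * y) i = D x i * D y i := by
    intro x y i
    induction i using Fin.lastCases with
    | last =>
      rw [hDl, hDl, hDl]
      simp only [Pi.mul_apply, map_mul, Finset.prod_mul_distrib, mul_inv]
    | cast i =>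
      rw [hDc, hDc, hDc]
      simp
  have hdet : ∀ x, (Matrix.diagonal (fun i => (D x i : F))).det = 1 := by
    intro x
    rw [Matrix.det_diagonal, Fin.prod_univ_castSucc, hDl]
    simp only [hDc]
    rw [← Units.coe_prod, Units.mul_inv]
  let M : (Fin a → Multiplicative (ZMod m)) → Matrix.SpecialLinearGroup (Fin (a + 1)) F :=
    fun x => ⟨Matrix.diagonal (fun i => (D x i : F)), hdet x⟩
  refine ⟨MonoidHom.mk' M ?_, ?_⟩
  · intro x y
    apply Subtype.ext
    change Matrix.diagonal (fun i => (D (x * y) i : F)) = Matrix.diagonal (fun i => (D x i : F)) * Matrix.diagonal (fun i => (D y i : F))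
    rw [Matrix.diagonal_mul_diagonal]
    congr 1
    funext i
    rw [hDmul]
    simp
  · intro x y hxy
    funext i
    apply hg
    have h1 := congrArg Subtype.val hxy
    have h2 : Matrix.diagonal (fun i => (D x i : F)) = Matrix.diagonal (fun i => (D y i : F)) := h1
    have h3 := congrFun (congrFun h2 (Fin.castSucc i)) (Fin.castSucc i)
    simp only [Matrix.diagonal_apply_eq] at h3
    rw [hDc, hDc] at h3
    exact Units.ext h3

/-- Sylow subgroups of the special linear group. -/
theorem sylow_SL {q r : ℕ} [Fact r.Prime] (hq : Fintype.card F = q) (n : ℕ) (hn : n < r) (hrq : ¬ r ∣ q)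
    (P : Sylow r (Matrix.SpecialLinearGroup (Fin n) F)) :
    Nonempty (↥(P : Subgroup (Matrix.SpecialLinearGroup (Fin n) F)) ≃*
      (Fin ((Finset.Icc 2 n).filter (fun i => orderOf (q : ZMod r) ∣ i)).card →
        Multiplicative (ZMod (r ^ padicValNat r ((Polynomial.cyclotomic (orderOf (q : ZMod r)) ℤ).eval (q : ℤ)).natAbs)))) := by
  classical
  have hq2 : 2 ≤ q := hq ▸ Fintype.one_lt_card
  set v := padicValNat r ((Polynomial.cyclotomic (orderOf (q : ZMod r)) ℤ).eval (q : ℤ)).natAbs with hv
  set d := orderOf (q : ZMod r) with hd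
  have hd0 : d ≠ 0 := (order_pos hrq).ne'
  have hvd : v = padicValNat r (q ^ d - 1) := (val_cyclotomic hq2 hrq).symm
  have hrp : r.Prime := Fact.out
  have : NeZero (r ^ v) := ⟨(pow_pos hrp.pos _).ne'⟩
  rcases Nat.eq_zero_or_pos n with rfl | hn0
  · have h1 : Subsingleton (Matrix.SpecialLinearGroup (Fin 0) F) := by
      refine ⟨fun a b => Subtype.ext ?_⟩
      ext i
      exact i.elim0
    have h2 : ((Finset.Icc 2 0).filter (fun i => d ∣ i)).card = 0 := by simp
    rw [h2]
    have h3 : Subsingleton (↥(P : Subgroup (Matrix.SpecialLinearGroup (Fin 0) F))) := inferInstance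
    refine ⟨MulEquiv.ofBijective (1 : _ →* _) ⟨fun a b _ => Subsingleton.elim _ _, fun y => ⟨1, ?_⟩⟩⟩
    exact Subsingleton.elim _ _
  have hne : Nonempty (Fin n) := ⟨⟨0, hn0⟩⟩
  have hgl := Cfsg.Agent.Lib.Classical.SLBasic.card_gl_eq_mul_card_sl (ι := Fin n) (F := F)
  have hfac : (Nat.card (GL (Fin n) F)).factorization r =
      (q - 1).factorization r + (Nat.card (Matrix.SpecialLinearGroup (Fin n) F)).factorization r := by
    rw [hgl, hq, Nat.factorization_mul (by omega) Nat.card_pos.ne']
    rfl
  have hfac0 : (Nat.card (GL (Fin n) F)).factorization r = (n / d) * v := factorization_card_GL hq hn hrq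
  rw [hfac0] at hfac
  by_cases hd1 : d = 1
  · -- split case
    have ha : ((Finset.Icc 2 n).filter (fun i => d ∣ i)).card = n - 1 := by
      rw [hd1]
      simp
    rw [ha]
    have hv1 : v = (q - 1).factorization r := by
      rw [hvd, hd1, pow_one, Nat.factorization_def _ hrp]
    have hm : r ^ v ∣ Fintype.card F - 1 := by
      rw [hq, hvd, hd1, pow_one]
      exact pow_padicValNat_dvd
    obtain ⟨a, rfl⟩ : ∃ a, n = a + 1 := ⟨n - 1, by omega⟩
    obtain ⟨f, hf⟩ := exists_diag_SL (F := F) (a := a) hm
    change Nonempty (↥(P : Subgroup (Matrix.SpecialLinearGroup (Fin (a + 1)) F)) ≃* (Fin a → Multiplicative (ZMod (r ^ v))))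
    apply sylow_equiv_of_hom r f hf _ P
    rw [hd1, Nat.div_one, ← hv1] at hfac
    have h5 : (Nat.card (Matrix.SpecialLinearGroup (Fin (a + 1)) F)).factorization r = a * v := by
      have h6 : (a + 1) * v = v + a * v := by ring
      omega
    rw [h5, Nat.card_pi]
    simp only [Nat.card_eq_fintype_card, Fintype.card_multiplicative, ZMod.card, Finset.prod_const, Finset.card_univ, Fintype.card_fin]
    rw [← pow_mul, mul_comm]
  · -- non-split case
    have hnd : ¬ r ∣ q - 1 := by
      intro h
      have h1 : r ∣ q ^ 1 - 1 := by rwa [pow_one]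
      have h2 := (dvd_pow_sub_one_iff (by omega) 1).1 h1
      exact hd1 (Nat.dvd_one.1 h2)
    have ha : ((Finset.Icc 2 n).filter (fun i => d ∣ i)).card = n / d := by
      rw [← Nat.card_multiples]
      apply Finset.card_bij (fun i _ => i - 1)
      · intro i hi
        simp only [Finset.mem_filter, Finset.mem_Icc] at hi
        simp only [Finset.mem_filter, Finset.mem_range]
        refine ⟨by omega, ?_⟩
        rw [Nat.sub_add_cancel (by omega)]
        exact hi.2
      · intro i hi j hj hij
        simp only [Finset.mem_filter, Finset.mem_Icc] at hi hj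
        omega
      · intro e he
        simp only [Finset.mem_filter, Finset.mem_range] at he
        refine ⟨e + 1, ?_, by simp⟩
        simp only [Finset.mem_filter, Finset.mem_Icc]
        refine ⟨⟨?_, by omega⟩, he.2⟩
        by_contra hc
        have he0 : e = 0 := by omega
        rw [he0] at he
        exact hd1 (Nat.dvd_one.1 he.2)
    rw [ha]
    have hm : r ^ v ∣ Fintype.card F ^ d - 1 := by
      rw [hq, hvd]
      exact pow_padicValNat_dvd
    obtain ⟨f, hf⟩ := exists_torus_GL (F := F) (k := n / d) (n := n) (m := r ^ v) hd0 (Nat.div_mul_le_self _ _) hm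
    have hcop : Nat.Coprime (r ^ v) (Fintype.card F - 1) := by
      apply Nat.Coprime.pow_left
      rw [hq]
      exact (Nat.Prime.coprime_iff_not_dvd hrp).2 hnd
    have hdet : ∀ x, (f x).1.det = 1 := by
      intro x
      let u : Fˣ := Matrix.GeneralLinearGroup.det (f x)
      have hu1 : u ^ (r ^ v) = 1 := by
        have h2 : x ^ (r ^ v) = 1 := by
          funext i
          have := pow_card_eq_one' (G := Multiplicative (ZMod (r ^ v))) (x := x i)
          simpa [Nat.card_eq_fintype_card] using this
        change (Matrix.GeneralLinearGroup.det (f x)) ^ (r ^ v) = 1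
        rw [← map_pow, ← map_pow, h2, map_one, map_one]
      have hu2 : u ^ (Fintype.card F - 1) = 1 := by
        have := pow_card_eq_one' (G := Fˣ) (x := u)
        rwa [Nat.card_units, Nat.card_eq_fintype_card] at this
      have h6 : orderOf u ∣ Nat.gcd (r ^ v) (Fintype.card F - 1) :=
        Nat.dvd_gcd (orderOf_dvd_of_pow_eq_one hu1) (orderOf_dvd_of_pow_eq_one hu2)
      rw [hcop.gcd_eq_one] at h6
      have h3 : u = 1 := orderOf_eq_one_iff.1 (Nat.dvd_one.1 h6)
      have h4 := congrArg Units.val h3
      exact h4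
    let f' : (Fin (n / d) → Multiplicative (ZMod (r ^ v))) →* Matrix.SpecialLinearGroup (Fin n) F :=
      MonoidHom.mk' (fun x => ⟨(f x).1, hdet x⟩) (by
        intro a b
        apply Subtype.ext
        change (f (a * b)).1 = (f a).1 * (f b).1
        rw [map_mul]
        rfl)
    have hf' : Function.Injective f' := by
      intro a b hab
      apply hf
      apply Units.ext
      exact congrArg Subtype.val hab
    apply sylow_equiv_of_hom r f' hf' _ P
    have h5 : (Nat.card (Matrix.SpecialLinearGroup (Fin n) F)).factorization r = (n / d) * v := by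
      rw [hfac, Nat.factorization_eq_zero_of_not_dvd hnd, zero_add]
    rw [h5, Nat.card_pi]
    simp only [Nat.card_eq_fintype_card, Fintype.card_multiplicative, ZMod.card, Finset.prod_const, Finset.card_univ, Fintype.card_fin]
    rw [← pow_mul, mul_comm]

end Cfsg.Agent.Lib.SylowLarge.Torus
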