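/-
Sylow subgroups of `Sp_{2n}(q)` for odd primes `r > n`.
-/
import Mathlib
import Cfsg.Agent.Lib.SylowLarge.SpForm
import Cfsg.Agent.Lib.SylowLarge.Torus
import Cfsg.Agent.Lib.CrossChar.Sp

set_option autoImplicit false
set_option linter.unusedSectionVars false

namespace Cfsg.Agent.Lib.SylowLarge.SpTorus

open Matrix Cfsg
open Cfsg.Agent.Lib.SylowLarge.SpForm
open Cfsg.Agent.Lib.SylowLarge.Val
open Cfsg.Agent.Lib.SylowLarge.Torus
open Cfsg.Agent.Lib.Classical.SympForm
open Finset

variable {q r : ℕ} [hr : Fact r.Prime]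

/-- Valuations of the factors of the order of the symplectic group. -/
lemma val_sp_factor (hr2 : r ≠ 2) (hq : 2 ≤ q) (hrq : ¬ r ∣ q) {n i : ℕ} (hn : n < r) (hi : i ∈ Icc 1 n) :
    (q ^ (2 * i) - 1).factorization r =
      if orderOf (q : ZMod r) ∣ 2 * i then padicValNat r ((Polynomial.cyclotomic (orderOf (q : ZMod r)) ℤ).eval (q : ℤ)).natAbs else 0 := by
  have hrp : r.Prime := hr.out
  rw [Nat.factorization_def _ hrp, ← val_cyclotomic hq hrq]
  obtain ⟨hi1, hi2⟩ := mem_Icc.1 hi
  set d := orderOf (q : ZMod r) with hd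
  have hd0 : 0 < d := order_pos hrq
  split_ifs with hdj
  · obtain ⟨t, ht⟩ := hdj
    rw [ht]
    have ht0 : t ≠ 0 := by
      rintro rfl
      simp at ht
      omega
    have hodd : Odd r := hrp.odd_of_ne_two hr2
    have h1 : 1 < q ^ d := Nat.one_lt_pow hd0.ne' (by omega)
    have h5 : r ∣ q ^ d - 1 := (dvd_pow_sub_one_iff (by omega) d).2 dvd_rfl
    have h6 : ¬ r ∣ q ^ d := fun h => hrq (hrp.dvd_of_dvd_pow h)
    have h7 := padicValNat.pow_sub_pow hodd h1 h5 h6 ht0
    rw [one_pow] at h7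
    rw [pow_mul, h7]
    have h8 : padicValNat r t = 0 := by
      apply padicValNat.eq_zero_of_not_dvd
      intro h9
      have h10 : r ∣ 2 * i := by
        rw [ht]
        exact h9.mul_left d
      have h11 : r ∣ i := by
        rcases (Nat.Prime.dvd_mul hrp).1 h10 with h | h
        · exact absurd ((Nat.prime_dvd_prime_iff_eq hrp Nat.prime_two).1 h) hr2
        · exact h
      have := Nat.le_of_dvd (by omega) h11
      omega
    rw [h8, add_zero]
  · apply padicValNat.eq_zero_of_not_dvd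
    rwa [dvd_pow_sub_one_iff (by omega)]

/-- The valuation of the order of the symplectic group. -/
lemma factorization_card_sp (hr2 : r ≠ 2) (hq : 2 ≤ q) (hrq : ¬ r ∣ q) {n : ℕ} (hn : n < r) :
    (q ^ (n ^ 2) * ∏ i ∈ range n, (q ^ (2 * (i + 1)) - 1)).factorization r =
      ((Icc 1 n).filter (fun i => orderOf (q : ZMod r) ∣ 2 * i)).card *
        padicValNat r ((Polynomial.cyclotomic (orderOf (q : ZMod r)) ℤ).eval (q : ℤ)).natAbs := by
  have hrp : r.Prime := hr.out
  have hq0 : q ≠ 0 := by omega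
  have hne : ∀ i, 1 ≤ i → q ^ (2 * i) - 1 ≠ 0 := by
    intro i hi
    have : 1 < q ^ (2 * i) := Nat.one_lt_pow (by omega) (by omega)
    omega
  have h1 : ∏ i ∈ range n, (q ^ (2 * (i + 1)) - 1) = ∏ i ∈ Icc 1 n, (q ^ (2 * i) - 1) := by
    have : Icc 1 n = Ico 1 (n + 1) := by
      ext x
      simp only [mem_Icc, mem_Ico]
      omega
    rw [this, Finset.prod_Ico_eq_prod_range]
    simp only [Nat.add_sub_cancel]
    refine Finset.prod_congr rfl fun i _ => ?_
    rw [add_comm 1 i]
  rw [h1, Nat.factorization_mul (pow_ne_zero _ hq0), Finsupp.add_apply, Nat.factorization_pow]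
  · have h2 : (q.factorization r) = 0 := Nat.factorization_eq_zero_of_not_dvd hrq
    simp only [Finsupp.smul_apply, smul_eq_mul, h2, mul_zero, zero_add]
    rw [Nat.factorization_prod (fun i hi => hne i (mem_Icc.1 hi).1), Finsupp.finsetSum_apply,
      Finset.sum_congr rfl (fun i hi => val_sp_factor hr2 hq hrq hn hi), Finset.sum_ite, Finset.sum_const_zero, add_zero,
      Finset.sum_const, smul_eq_mul]
  · rw [Finset.prod_ne_zero_iff]
    exact fun i hi => hne i (mem_Icc.1 hi).1

lemma card_filter_odd {d : ℕ} (hd : Odd d) (n : ℕ) : ((Icc 1 n).filter (fun i => d ∣ 2 * i)).card = n / d := by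
  have h1 : Nat.Coprime d 2 := Nat.Coprime.symm (Nat.coprime_two_left.2 hd)
  rw [← Nat.Ioc_filter_dvd_card_eq_div]
  congr 1
  ext x
  simp only [mem_filter, mem_Icc, mem_Ioc]
  constructor
  · rintro ⟨⟨h2, h3⟩, h4⟩
    exact ⟨⟨by omega, h3⟩, h1.dvd_of_dvd_mul_left h4⟩
  · rintro ⟨⟨h2, h3⟩, h4⟩
    exact ⟨⟨by omega, h3⟩, h4.mul_left 2⟩

lemma card_filter_even (e n : ℕ) : ((Icc 1 n).filter (fun i => 2 * e ∣ 2 * i)).card = n / e := by
  rw [← Nat.Ioc_filter_dvd_card_eq_div]
  congr 1
  ext x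
  simp only [mem_filter, mem_Icc, mem_Ioc]
  constructor
  · rintro ⟨⟨h2, h3⟩, h4⟩
    exact ⟨⟨by omega, h3⟩, Nat.dvd_of_mul_dvd_mul_left (by norm_num) h4⟩
  · rintro ⟨⟨h2, h3⟩, h4⟩
    exact ⟨⟨by omega, h3⟩, Nat.mul_dvd_mul_left 2 h4⟩

variable {F : Type*} [Field F] [Fintype F]

/-- The Levi embedding. -/
def spLHom (n : ℕ) : GL (Fin n) F →* Matrix.symplecticGroup (Fin n) F :=
  MonoidHom.mk' Cfsg.Agent.Lib.CrossChar.Sp.spL (by
    intro a b
    apply Subtype.ext
    change fromBlocks (a * b).val 0 0 ((a * b)⁻¹).valᵀ = fromBlocks a.val 0 0 (a⁻¹).valᵀ * fromBlocks b.val 0 0 (b⁻¹).valᵀ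
    rw [fromBlocks_multiply, _root_.mul_inv_rev]
    simp only [Units.val_mul, transpose_mul, Matrix.mul_zero, Matrix.zero_mul, add_zero, zero_add])

lemma spLHom_injective (n : ℕ) : Function.Injective (spLHom (F := F) n) := by
  intro a b hab
  apply Units.ext
  have h1 := congrArg Subtype.val hab
  have h2 : fromBlocks a.val 0 0 (a⁻¹).valᵀ = fromBlocks b.val 0 0 (b⁻¹).valᵀ := h1
  exact (Matrix.fromBlocks_inj.1 h2).1

/-- Multiplication by units on the first factor. -/
def actV {F K W : Type*} [Field F] [Field K] [Algebra F K] [AddCommGroup W] [Module F W] {a : ℕ} (w : Fin a → Kˣ) :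
    ((Fin a → K) × W) ≃ₗ[F] ((Fin a → K) × W) where
  toFun p := (fun i => (w i : K) * p.1 i, p.2)
  invFun p := (fun i => ((w i)⁻¹ : Kˣ) * p.1 i, p.2)
  map_add' p r := Prod.ext (funext fun i => mul_add _ _ _) rfl
  map_smul' c p := Prod.ext (funext fun i => mul_smul_comm c _ _) rfl
  left_inv p := Prod.ext (funext fun i => by simp) rfl
  right_inv p := Prod.ext (funext fun i => by simp) rfl

/-- The group `(C_m)^a` embeds in `Sp_{2n}(q)` when `m ∣ q^e + 1` and `a e ≤ n`. -/
theorem exists_torus_sp {n e a m : ℕ} (he : e ≠ 0) (hae : a * e ≤ n) (hm : m ∣ Fintype.card F ^ e + 1) :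
    ∃ f : (Fin a → Multiplicative (ZMod m)) →* Matrix.symplecticGroup (Fin n) F, Function.Injective f := by
  classical
  set q := Fintype.card F with hq
  have hq2 : 2 ≤ q := Fintype.one_lt_card
  obtain ⟨p, hp⟩ := CharP.exists F
  obtain ⟨f₀, hpp, hf₀⟩ := FiniteField.card F p
  have : Fact p.Prime := ⟨hpp⟩
  have : NeZero (2 * e) := ⟨by omega⟩
  let K := FiniteField.Extension F p (2 * e)
  have hcardK : Nat.card K = q ^ (2 * e) := by
    rw [FiniteField.natCard_extension, Nat.card_eq_fintype_card]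
  have hfin : Module.finrank F K = 2 * e := FiniteField.finrank_extension F p (2 * e)
  letI : Fintype K := Fintype.ofFinite K
  have hcardK' : Fintype.card K = q ^ (2 * e) := by rw [← Nat.card_eq_fintype_card, hcardK]
  let σ₀ : K ≃ₐ[F] K := FiniteField.frobeniusAlgEquivOfAlgebraic F K
  let σ : K ≃ₐ[F] K := σ₀ ^ e
  have hσ_apply : ∀ x, σ x = x ^ (q ^ e) := by
    intro x
    have h1 : (⇑σ) = (⇑σ₀)^[e] := AlgEquiv.coe_pow σ₀ e
    rw [h1, FiniteField.coe_frobeniusAlgEquivOfAlgebraic_iterate]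
  have hσσ : ∀ x, σ (σ x) = x := by
    intro x
    rw [hσ_apply, hσ_apply, ← pow_mul, ← pow_add, ← two_mul, ← hcardK']
    exact FiniteField.pow_card x
  have hQ1 : 1 < q ^ e := Nat.one_lt_pow he (by omega)
  obtain ⟨β, hβ⟩ : ∃ β, σ β ≠ β := by
    by_contra hc
    push Not at hc
    obtain ⟨ζ, hζ⟩ := IsCyclic.exists_ofOrder_eq_natCard (α := Kˣ)
    have h1 : (ζ : K) ^ (q ^ e) = ζ := by
      rw [← hσ_apply, hc]
    have h2 : ζ ^ (q ^ e - 1) = 1 := by
      apply Units.ext
      have h3 : (ζ : K) ^ (q ^ e - 1) * ζ = 1 * ζ := by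
        rw [← pow_succ, Nat.sub_add_cancel hQ1.le, h1, one_mul]
      have h4 := mul_right_cancel₀ ζ.ne_zero h3
      simpa using h4
    have h3 := orderOf_dvd_of_pow_eq_one h2
    rw [hζ, Nat.card_units, hcardK] at h3
    have h4 := Nat.le_of_dvd (by omega) h3
    have h5 : q ^ (2 * e) = q ^ e * q ^ e := by rw [two_mul, pow_add]
    have h6 : 2 * q ^ e ≤ q ^ e * q ^ e := Nat.mul_le_mul_right _ (by omega)
    omega
  have hB1 := kForm_isAlt (F := F) σ hσσ β
  have hB2 := kForm_nondegenerate (F := F) σ hσσ hβ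
  set α := β - σ β with hα
  set k := n - a * e with hk
  let V := (Fin a → K) × (Fin k ⊕ Fin k → F)
  let B : LinearMap.BilinForm F V := sumForm (piForm (Fin a) (kForm (F := F) σ α)) (sympBilin k F)
  have hBalt : B.IsAlt := sumForm_isAlt (piForm_isAlt hB1) sympBilin_isAlt
  have hBnd : B.Nondegenerate :=
    sumForm_nondegenerate (piForm_isAlt hB1) sympBilin_isAlt (piForm_nondegenerate hB1 hB2) sympBilin_nondegenerate
  have hV : Nat.card V = (Nat.card F) ^ (2 * n) := by
    simp only [V]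
    rw [Nat.card_prod, Nat.card_fun, Nat.card_fun, hcardK, Nat.card_eq_fintype_card (α := Fin a), Nat.card_eq_fintype_card (α := Fin k ⊕ Fin k),
      Fintype.card_fin, Fintype.card_sum, Fintype.card_fin, Nat.card_eq_fintype_card (α := F), ← hq, ← pow_mul, ← pow_add]
    congr 1
    have : n = a * e + k := by omega
    rw [this]
    ring
  have hcardU : Nat.card Kˣ = q ^ (2 * e) - 1 := by
    rw [Nat.card_units, hcardK]
  have hmK : m ∣ Nat.card Kˣ := by
    rw [hcardU]
    refine hm.trans ?_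
    have h5 : q ^ (2 * e) - 1 = (q ^ e + 1) * (q ^ e - 1) := by
      obtain ⟨b, hb⟩ : ∃ b, q ^ e = b + 1 := ⟨q ^ e - 1, by omega⟩
      rw [two_mul, pow_add, hb]
      simp only [Nat.add_sub_cancel]
      have : (b + 1) * (b + 1) = (b + 1 + 1) * b + 1 := by ring
      omega
    rw [h5]
    exact dvd_mul_right _ _
  obtain ⟨u, hu⟩ := exists_inj_zmod (G := Kˣ) hmK
  have hm0 : m ≠ 0 := by
    rintro rfl
    exact absurd (Nat.eq_zero_of_zero_dvd hm) (by omega)
  have : NeZero m := ⟨hm0⟩
  have hunorm : ∀ x, (u x : K) * σ (u x : K) = 1 := by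
    intro x
    have h1 : x ^ m = 1 := by
      have := pow_card_eq_one' (G := Multiplicative (ZMod m)) (x := x)
      simpa [Nat.card_eq_fintype_card] using this
    have h2 : (u x) ^ m = 1 := by rw [← map_pow, h1, map_one]
    have h3 : (u x) ^ (q ^ e + 1) = 1 := by
      obtain ⟨c, hc⟩ := hm
      rw [hc, pow_mul, h2, one_pow]
    have h4 : ((u x : K)) ^ (q ^ e + 1) = 1 := by
      have := congrArg Units.val h3
      simpa using this
    rw [hσ_apply, ← pow_succ']
    exact h4
  let act : (Fin a → Multiplicative (ZMod m)) → (V ≃ₗ[F] V) := fun x => actV (fun i => u (x i))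
  have hact : ∀ x p, act x p = (fun i => (u (x i) : K) * p.1 i, p.2) := fun x p => rfl
  let φ : (Fin a → Multiplicative (ZMod m)) →* (V ≃ₗ[F] V) :=
    MonoidHom.mk' act (by
      intro x y
      apply LinearEquiv.ext
      intro p
      rw [LinearEquiv.mul_apply, hact, hact, hact]
      apply Prod.ext
      · funext i
        simp [mul_assoc]
      · rfl)
  have hφ : Function.Injective φ := by
    intro x y hxy
    funext i
    apply hu
    apply Units.ext
    have h1 := congrArg (fun g : V ≃ₗ[F] V => (g (Pi.single i 1, 0)).1 i) hxy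
    change (act x (Pi.single i 1, 0)).1 i = (act y (Pi.single i 1, 0)).1 i at h1
    rw [hact, hact] at h1
    simpa using h1
  have hiso : ∀ x p r, B (φ x p) (φ x r) = B p r := by
    intro x p r
    change B (act x p) (act x r) = B p r
    rw [hact, hact]
    change piForm (Fin a) (kForm (F := F) σ α) _ _ + sympBilin k F _ _ = piForm (Fin a) (kForm (F := F) σ α) _ _ + sympBilin k F _ _
    rw [piForm_apply, piForm_apply]
    congr 1
    refine Finset.sum_congr rfl fun i _ => ?_
    rw [kForm_apply, kForm_apply]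
    congr 1
    rw [map_mul]
    have := hunorm (x i)
    linear_combination (α * p.1 i * σ (r.1 i)) * this
  exact exists_sp_hom rfl B hBalt hBnd n hV φ hφ hiso

/-- Sylow subgroups of the symplectic group. -/
theorem sylow_Sp {q r : ℕ} [Fact r.Prime] (hq : Fintype.card F = q) (n : ℕ) (hr2 : r ≠ 2) (hn : n < r) (hrq : ¬ r ∣ q)
    (P : Sylow r ↥(Matrix.symplecticGroup (Fin n) F)) :
    Nonempty (↥(P : Subgroup ↥(Matrix.symplecticGroup (Fin n) F)) ≃*
      (Fin ((Finset.Icc 1 n).filter (fun i => orderOf (q : ZMod r) ∣ 2 * i)).card →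
        Multiplicative (ZMod (r ^ padicValNat r ((Polynomial.cyclotomic (orderOf (q : ZMod r)) ℤ).eval (q : ℤ)).natAbs)))) := by
  classical
  have hq2 : 2 ≤ q := hq ▸ Fintype.one_lt_card
  have hrp : r.Prime := Fact.out
  have hfac := factorization_card_sp hr2 hq2 hrq hn
  set v := padicValNat r ((Polynomial.cyclotomic (orderOf (q : ZMod r)) ℤ).eval (q : ℤ)).natAbs with hv
  set d := orderOf (q : ZMod r) with hd
  have hd0 : d ≠ 0 := (order_pos hrq).ne'
  have hvd : v = padicValNat r (q ^ d - 1) := (val_cyclotomic hq2 hrq).symm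
  have : NeZero (r ^ v) := ⟨(pow_pos hrp.pos _).ne'⟩
  have hcardSp : Nat.card ↥(Matrix.symplecticGroup (Fin n) F) = q ^ (n ^ 2) * ∏ i ∈ Finset.range n, (q ^ (2 * (i + 1)) - 1) :=
    Cfsg.Agent.Lib.Classical.SympCount.card_symplecticGroup (by rw [Nat.card_eq_fintype_card, hq]) n
  have hm : r ^ v ∣ q ^ d - 1 := by
    rw [hvd]
    exact pow_padicValNat_dvd
  have key : ∃ f : (Fin ((Finset.Icc 1 n).filter (fun i => d ∣ 2 * i)).card → Multiplicative (ZMod (r ^ v))) →* Matrix.symplecticGroup (Fin n) F,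
      Function.Injective f := by
    rcases Nat.even_or_odd d with hdeven | hdodd
    · obtain ⟨e, he⟩ := hdeven.two_dvd
      have he0 : e ≠ 0 := by
        rintro rfl
        simp at he
        exact hd0 he
      rw [he, card_filter_even]
      apply exists_torus_sp he0 (Nat.div_mul_le_self _ _)
      rw [hq]
      have hQ1 : 1 ≤ q ^ e := Nat.one_le_pow _ _ (by omega)
      have h5 : q ^ d - 1 = (q ^ e + 1) * (q ^ e - 1) := by
        obtain ⟨b, hb⟩ : ∃ b, q ^ e = b + 1 := ⟨q ^ e - 1, by omega⟩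
        rw [he, two_mul, pow_add, hb]
        simp only [Nat.add_sub_cancel]
        have : (b + 1) * (b + 1) = (b + 1 + 1) * b + 1 := by ring
        omega
      rw [h5] at hm
      have hcop : Nat.Coprime (r ^ v) (q ^ e - 1) := by
        apply Nat.Coprime.pow_left
        rw [Nat.Prime.coprime_iff_not_dvd hrp, dvd_pow_sub_one_iff (by omega)]
        intro h6
        rw [← hd, he] at h6
        have := Nat.le_of_dvd (by omega) h6
        omega
      exact hcop.dvd_of_dvd_mul_right hm
    · rw [card_filter_odd hdodd]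
      obtain ⟨f, hf⟩ := exists_torus_GL (F := F) (k := n / d) (n := n) (m := r ^ v) hd0 (Nat.div_mul_le_self _ _) (by rw [hq]; exact hm)
      exact ⟨(spLHom n).comp f, (spLHom_injective n).comp hf⟩
  obtain ⟨f, hf⟩ := key
  apply sylow_equiv_of_hom r f hf _ P
  rw [hcardSp, hfac, Nat.card_pi]
  simp only [Nat.card_eq_fintype_card, Fintype.card_multiplicative, ZMod.card, Finset.prod_const, Finset.card_univ, Fintype.card_fin]
  rw [← pow_mul, mul_comm]

end Cfsg.Agent.Lib.SylowLarge.SpTorus
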